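import Cfsg.Agent.H326.QS.FiRed

/-!
# Commutators in a perfect central extension from two triples with two fused elements (helper326)

`isC_of_triples2` : as `isC_of_triples`, the two triples may start with two different elements which are both fused in
`K₃`.
-/

set_option autoImplicit false

namespace Cfsg.Agent.H326.QS.FiRed

open Subgroup Cfsg.Agent.H51.Mult Cfsg.Agent.H68.Bounds Cfsg.Agent.H990.TC Cfsg.Agent.H326.QS.Fuse
open Cfsg.Agent.H777.Ore

universe u v w x' u'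

section main

variable {K : Type v} [Group K] {A : Type u'} [CommGroup A]

/-- **two triples**, two fused elements -/
theorem isC_of_triples2 (hM : Cfsg.HasSchurMultiplier K A) (hA : Nat.card A = 6)
    {K2 : Type w} [Group K2] {π2 : K2 →* K} (h2 : PCE π2) (hc2 : Nat.card π2.ker = 2)
    {K3 : Type x'} [Group K3] {π3 : K3 →* K} (h3 : PCE π3) (hc3 : Nat.card π3.ker = 3)
    {y2 h k x2 h' k' : K2} (hy : ∃ c y3 : K3, π2 y2 = π3 y3 ∧ π3 (c * y3) = π3 (y3 * c) ∧ c * y3 ≠ y3 * c)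
    (hx : ∃ c y3 : K3, π2 x2 = π3 y3 ∧ π3 (c * y3) = π3 (y3 * c) ∧ c * y3 ≠ y3 * c)
    (hr : π2 (h * (y2 * k * y2⁻¹ * k⁻¹) * h⁻¹) = π2 (h' * (x2 * k' * x2⁻¹ * k'⁻¹) * h'⁻¹))
    (hne2 : h * (y2 * k * y2⁻¹ * k⁻¹) * h⁻¹ ≠ h' * (x2 * k' * x2⁻¹ * k'⁻¹) * h'⁻¹)
    {L : Type u} [Group L] {π : L →* K} (hπ : PCE π) {g : L}
    (hg : π g = π2 (h * (y2 * k * y2⁻¹ * k⁻¹) * h⁻¹)) : IsC g := by
  obtain ⟨D, _, f, e, hf, he, hfe, hD, -⟩ := exists_common h2 h3
  obtain ⟨E, _, a, b, ha, hb, hab, hE, -⟩ := exists_common hD hπ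
  -- the three maps
  set τ : E →* K := (π2.comp f).comp a with hτ
  have t2 : ∀ z, π2 (f (a z)) = τ z := fun _ => rfl
  have t3 : ∀ z, π3 (e (a z)) = τ z := fun z => (DFunLike.congr_fun hfe (a z)).symm
  have tb : ∀ z, π (b z) = τ z := fun z => (DFunLike.congr_fun hab z).symm
  have s2 : Function.Surjective (f.comp a) := hf.surj.comp ha.surj
  have s3 : Function.Surjective (e.comp a) := he.surj.comp ha.surj
  -- orders
  have c1 : Nat.card τ.ker ∣ 6 := by rw [← hA]; exact card_ker_dvd hM hE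
  have c2 : Nat.card τ.ker = 2 * Nat.card (f.comp a).ker := by
    have h5 := card_ker_comp (ρ := π2) s2
    rw [hc2] at h5
    exact h5
  have c3 : Nat.card (f.comp a).ker ∣ 3 := by
    rw [c2] at c1
    exact Nat.dvd_of_mul_dvd_mul_left (by norm_num : 0 < 2) c1
  have hfinτ : Finite τ.ker := Nat.finite_of_card_ne_zero fun h => by rw [h] at c1; omega
  -- lifts
  obtain ⟨Y, hY⟩ := s2 y2
  obtain ⟨Y', hY'⟩ := s2 x2
  obtain ⟨H, hH⟩ := s2 h
  obtain ⟨H', hH'⟩ := s2 h'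
  obtain ⟨X, hX⟩ := s2 k
  obtain ⟨X', hX'⟩ := s2 k'
  obtain ⟨G, rfl⟩ := hb.surj g
  have v1 : (f.comp a) (H * (Y * X * Y⁻¹ * X⁻¹) * H⁻¹) = h * (y2 * k * y2⁻¹ * k⁻¹) * h⁻¹ := by
    simp only [map_mul, map_inv, hY, hH, hX]
  have v2 : (f.comp a) (H' * (Y' * X' * Y'⁻¹ * X'⁻¹) * H'⁻¹) = h' * (x2 * k' * x2⁻¹ * k'⁻¹) * h'⁻¹ := by
    simp only [map_mul, map_inv, hY', hH', hX']
  have hG : π2 ((f.comp a) G) = π2 (h * (y2 * k * y2⁻¹ * k⁻¹) * h⁻¹) := by
    rw [← hg, tb]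
    rfl
  -- the fused elements
  have hle : ∀ (Y : E), (∃ c y3 : K3, π2 ((f.comp a) Y) = π3 y3 ∧ π3 (c * y3) = π3 (y3 * c) ∧ c * y3 ≠ y3 * c) →
      (f.comp a).ker ≤ Sf τ hE.cen Y := by
    rintro Y ⟨c, y3, hy, hx3, hne3⟩
    have hS3 : Sf π3 h3.cen ((e.comp a) Y) = π3.ker := by
      refine Sf_eq_ker_of (y := y3) (Sf_eq_of_prime Nat.prime_three hc3 hx3 hne3) ?_
      rw [← hy]
      exact ((t3 Y).trans (t2 Y).symm).symm
    have hS : 3 ∣ Nat.card ↥(Sf τ hE.cen Y) := by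
      rw [← hc3]
      exact card_dvd_Sf (hcD := hE.cen) (hc := h3.cen) s3 (fun z => t3 z) hS3
    have hfinS : Finite ↥(Sf τ hE.cen Y) := Finite.Set.subset (τ.ker : Set E) (Sf_le Y)
    have : Fact (Nat.Prime 3) := ⟨Nat.prime_three⟩
    obtain ⟨z, hz⟩ := exists_prime_orderOf_dvd_card' 3 hS
    have hz3 : orderOf (z : E) = 3 := by rw [← hz]; exact orderOf_submonoid z
    -- `z` lies in the kernel of `f ∘ a`
    have hz1 : (z : E) ∈ (f.comp a).ker := by
      rw [MonoidHom.mem_ker, ← orderOf_eq_one_iff]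
      have d1 : orderOf ((f.comp a) (z : E)) ∣ 3 := by rw [← hz3]; exact orderOf_map_dvd _ _
      have hm : (f.comp a) (z : E) ∈ π2.ker := z.2.1
      have d2 : orderOf ((f.comp a) (z : E)) ∣ 2 := by
        have h6 : orderOf (⟨(f.comp a) (z : E), hm⟩ : π2.ker) ∣ Nat.card π2.ker := orderOf_dvd_natCard _
        rw [hc2] at h6
        rwa [Subgroup.orderOf_mk] at h6
      have h7 := Nat.dvd_gcd d1 d2
      exact Nat.dvd_one.1 (by simpa using h7)
    have hcard : Nat.card ↥(zpowers (z : E)) = 3 := by rw [Nat.card_zpowers, hz3]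
    have hle1 : zpowers (z : E) ≤ (f.comp a).ker := by rw [zpowers_le]; exact hz1
    have hfin2 : Finite ↥(f.comp a).ker := Nat.finite_of_card_ne_zero fun h => by rw [h] at c3; omega
    have heq : zpowers (z : E) = (f.comp a).ker :=
      Subgroup.eq_of_le_of_card_ge hle1 (by rw [hcard]; exact Nat.le_of_dvd (by norm_num) c3)
    rw [← heq, zpowers_le]
    exact z.2
  -- the end
  have fin : ∀ Y H X : E, (f.comp a).ker ≤ Sf τ hE.cen Y →
      (f.comp a) G = (f.comp a) (H * (Y * X * Y⁻¹ * X⁻¹) * H⁻¹) → IsC G := by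
    intro Y H X hle hGX
    set B := H * (Y * X * Y⁻¹ * X⁻¹) * H⁻¹ with hB
    have hu : B⁻¹ * G ∈ (f.comp a).ker := by
      rw [MonoidHom.mem_ker, map_mul, map_inv, hGX, inv_mul_cancel]
    obtain ⟨-, c, hc⟩ := inv_mem (hle hu)
    have hcen : B⁻¹ * G ∈ center E := hE.cen (hle hu).1
    have h8 := isC_mul_of_conj (h := H) (k := X) hcen hc
    rw [← hB, mul_inv_cancel_left] at h8
    exact h8
  have hGC : IsC G := by
    rcases eq_or_eq hc2 hne2 hr hG with h9 | h9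
    · exact fin Y H X (hle Y (by rw [hY]; exact hy)) (by rw [h9, v1])
    · exact fin Y' H' X' (hle Y' (by rw [hY']; exact hx)) (by rw [h9, v2])
  exact hGC.map b

end main

end Cfsg.Agent.H326.QS.FiRed
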