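import Cfsg.Agent.H326.QS.FiRedB
import Cfsg.Agent.H326.QS.FiRow

/-!
# The frame of the row `Fi22` of S2491, several fused elements (helper326)

* `Fus π₃ x` : the word `x` is fused in the cover `π₃`;
* `GoodB F a b` : the class of `[a, b]` has two triples starting with words in `F`;
* `rowNB` : the row.
-/

set_option autoImplicit false
set_option maxRecDepth 1000000

namespace Cfsg.Agent.H326.QS.FiRow

open Cfsg Cfsg.Spor Cfsg.Agent.H51.Mult Cfsg.Agent.H6.QO Cfsg.Agent.H777.Ore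
open Cfsg.Agent.H123.Cls.FiDat (W el el_append el_reverse words_cover)
open Cfsg.Agent.H326.QS.FiTwo (K2 pi2 pce2 card_ker2 v2 v2_append v2_reverse chk2 v2_ne)

/-- the word `x` is fused in the cover -/
def Fus {K3 : Type} [Group K3] (π3 : K3 →* Spor.Fi22) (x : List ℕ) : Prop :=
  ∃ c y3 : K3, π3 y3 = el x ∧ π3 (c * y3) = π3 (y3 * c) ∧ c * y3 ≠ y3 * c

/-- two triples -/
def GoodB (F : List ℕ → Prop) (a b : List ℕ) : Prop := ∃ x k h x' k' h' : List ℕ, F x ∧ F x' ∧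
  el (tw x k h) = el (cw a b) ∧ el (tw x' k' h') = el (cw a b) ∧ v2 (tw x k h) ≠ v2 (tw x' k' h')

theorem goodB_of_chk {F : List ℕ → Prop} {x a b k h x' k' h' : List ℕ} {p : ℕ} (hx : F x) (hx' : F x')
    (h1 : chkE (tw x k h) (cw a b) = true) (h2 : chkE (tw x' k' h') (cw a b) = true)
    (h3 : chk2 (tw x k h) (tw x' k' h') p = true) : GoodB F a b :=
  ⟨x, k, h, x', k', h', hx, hx', el_eq_of_chkE h1, el_eq_of_chkE h2, v2_ne h3⟩

/-- **the row** -/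
theorem rowNB {K3 : Type} [Group K3] {π3 : K3 →* Spor.Fi22} (h3 : PCE π3) (hc3 : Nat.card π3.ker = 3)
    (hx : ∀ y ∈ W, el (cw y.2.1 y.2.2.1) ≠ 1 → GoodB (Fus π3) y.2.1 y.2.2.1) : RowN Spor.Fi22 := by
  intro L _ _ π hπ g hg
  obtain ⟨y, hy, θ, hθ⟩ := words_cover (π g)
  rw [← el_cw] at hθ
  -- the twisted projection
  have hπ' : PCE ((θ.symm : Spor.Fi22 ≃* Spor.Fi22).toMonoidHom.comp π) := hπ.congr θ.symm
  have hg' : ((θ.symm : Spor.Fi22 ≃* Spor.Fi22).toMonoidHom.comp π) g = el (cw y.2.1 y.2.2.1) := by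
    show θ.symm (π g) = _
    rw [hθ, MulEquiv.symm_apply_apply]
  have hne : el (cw y.2.1 y.2.2.1) ≠ 1 := by
    intro h1
    rw [h1, map_one] at hθ
    exact hg (hπ.cen (MonoidHom.mem_ker.2 hθ))
  obtain ⟨x, k, h, x', k', h', hf, hf', e1, e2, e3⟩ := hx y hy hne
  refine FiRed.isC_of_triples2 (A := Multiplicative (ZMod 6)) Cfsg.Agent.S2053.result card6 pce2 card_ker2 h3 hc3
    (y2 := v2 x) (x2 := v2 x') (h := v2 h) (k := v2 k) (h' := v2 h') (k' := v2 k') ?_ ?_ ?_ ?_ hπ' (g := g) ?_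
  · obtain ⟨c, y3, h4, h5, h6⟩ := hf
    exact ⟨c, y3, by rw [h4, pi2_v2], h5, h6⟩
  · obtain ⟨c, y3, h4, h5, h6⟩ := hf'
    exact ⟨c, y3, by rw [h4, pi2_v2], h5, h6⟩
  · rw [← v2_tw, ← v2_tw, pi2_v2, pi2_v2, e1, e2]
  · rw [← v2_tw, ← v2_tw]
    exact e3
  · rw [hg', ← v2_tw, pi2_v2, e1]

end Cfsg.Agent.H326.QS.FiRow
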